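import Cfsg.Agent.Chev.OrdersByType
import Cfsg.Prelude.Def_LieTwisted

/-! The exponent of a Sylow 2-subgroup of `²F₄(q)` is at most 32. -/

set_option autoImplicit false

universe u

namespace Cfsg.Agent.KnownA.Lie

open Cfsg.Lie Cfsg.Agent.Chev
open scoped Matrix MatrixGroups

theorem isUp_pow {D : ChevalleyDatum} {F : Type u} [Field F] {μ : D.Idx → ℤ} {M : Matrix D.Idx D.Idx F}
    (h : IsUp μ 1 M) : ∀ k : ℕ, IsUp μ (k : ℤ) (M ^ k)
  | 0 => by simpa using (isUp_one : IsUp μ 0 (1 : Matrix D.Idx D.Idx F))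
  | k + 1 => by
    rw [pow_succ]
    exact_mod_cast (isUp_pow h k).mul h

theorem f4_ht_le : ∀ r < chevF4.nroots,
    (|∑ j ∈ Finset.range chevF4.rank, tabF4.coefI r j| : ℤ) ≤ 11 := by decide +kernel

theorem posUnipotent_pow_f4 {F : Type u} [Field F] [CharP F 2] {g : GL chevF4.Idx F}
    (hg : g ∈ chevF4.posUnipotent F) : g ^ 32 = 1 := by
  have hup := (mem_upGroup.mp (certF4.{u}.posUnipotent_le_upGroup hg)).1
  have hb : ∀ x : chevF4.Idx, |certF4.{u}.wt 1 x| ≤ 11 := by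
    rintro (x | x)
    · simp [Cert.wt]
    · simp only [Cert.wt, Sum.elim_inr, one_mul]
      exact f4_ht_le x.val x.isLt
  have h32 := isUp_pow (by exact_mod_cast hup) 32
  have hz : ((g : Matrix chevF4.Idx chevF4.Idx F) - 1) ^ 32 = 0 := by
    ext i j
    refine h32 i j ?_
    have hi := abs_le.mp (hb i)
    have hj := abs_le.mp (hb j)
    push_cast
    omega
  have : Fact (Nat.Prime 2) := ⟨Nat.prime_two⟩
  have : Nonempty chevF4.Idx := ⟨Sum.inr ⟨0, by decide⟩⟩
  apply Units.ext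
  have h2 := sub_pow_char_pow_of_commute (p := 2) (n := 5)
    (h := Commute.one_right (g : Matrix chevF4.Idx chevF4.Idx F))
  norm_num at h2
  rw [hz] at h2
  rw [Units.val_pow_eq_pow_val, Units.val_one]
  exact sub_eq_zero.mp h2.symm

theorem twistedF4_le (K : Type u) [Field K] (e : ℕ) : twistedF4 K e ≤ chevF4.group K := by
  refine (Subgroup.closure_le _).mpr ?_
  rintro g ⟨w, -, hg⟩
  have hw : g = certF4.{u}.wu w := Units.ext (hg.trans (certF4.{u}.coe_wu w).symm)
  rw [hw]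
  refine list_prod_mem ?_
  intro y hy
  obtain ⟨p, -, rfl⟩ := List.mem_map.mp hy
  exact certF4.{u}.xu_mem_group p.1 p.2

theorem orderOf_le_32 {K : Type u} [Field K] [Fintype K] (m : ℕ) (hK : Fintype.card K = 2 ^ (2 * m + 1))
    (x : ↥(twistedF4 K (2 ^ m))) (hx : ∃ j : ℕ, orderOf x = 2 ^ j) : orderOf x ≤ 32 := by
  have : Fact (Nat.Prime 2) := ⟨Nat.prime_two⟩
  have : CharP K 2 := charP_of_card_eq_prime_pow hK
  let y : ↥(chevF4.group K) := Subgroup.inclusion (twistedF4_le K _) x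
  have hy : orderOf y = orderOf x :=
    orderOf_injective (Subgroup.inclusion (twistedF4_le K _)) (Subgroup.inclusion_injective _) x
  have hpg : IsPGroup 2 (Subgroup.zpowers y) := by
    obtain ⟨j, hj⟩ := hx
    exact IsPGroup.of_card (n := j) (by rw [Nat.card_zpowers, hy, hj])
  obtain ⟨P, hP⟩ := hpg.exists_le_sylow
  let U : Subgroup ↥(chevF4.group K) := (chevF4.posUnipotent K).subgroupOf (chevF4.group K)
  have hU : Nat.card U = 2 ^ (Nat.card ↥(chevF4.group K)).factorization 2 := by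
    have hle : chevF4.posUnipotent K ≤ chevF4.group K :=
      certF4.{u}.pos_le_borel.trans certF4.{u}.borel_le_group
    have hn : chevF4.nroots / 2 = 24 := by decide
    rw [Nat.card_congr (Subgroup.subgroupOfEquivOfLe hle).toEquiv,
      certF4.{u}.natCard_posUnipotent, hn, hK, ← pow_mul]
    have hodd : ∀ e : ℕ, e ≠ 0 → ¬ 2 ∣ (2 ^ (2 * m + 1)) ^ e - 1 := by
      intro e he h
      have h2 : 2 ∣ (2 ^ (2 * m + 1)) ^ e := dvd_pow (dvd_pow_self 2 (by omega)) he
      have h1 : 1 ≤ (2 ^ (2 * m + 1)) ^ e := Nat.one_le_pow _ _ (by positivity)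
      omega
    congr 1
    rw [orderF4 hK, ← pow_mul]
    have hne : ∀ e : ℕ, e ≠ 0 → (2 ^ (2 * m + 1)) ^ e - 1 ≠ 0 := fun e he h0 => hodd e he (h0 ▸ dvd_zero 2)
    have hnd : ¬ 2 ∣ ((2 ^ (2 * m + 1)) ^ 2 - 1) * ((2 ^ (2 * m + 1)) ^ 6 - 1) *
        ((2 ^ (2 * m + 1)) ^ 8 - 1) * ((2 ^ (2 * m + 1)) ^ 12 - 1) := by
      simp only [Nat.prime_two.dvd_mul, not_or]
      exact ⟨⟨⟨hodd 2 (by norm_num), hodd 6 (by norm_num)⟩, hodd 8 (by norm_num)⟩, hodd 12 (by norm_num)⟩
    rw [mul_assoc, mul_assoc, mul_assoc, Nat.factorization_mul (by positivity)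
      (by simp only [mul_ne_zero_iff]; exact ⟨hne 2 (by norm_num), hne 6 (by norm_num), hne 8 (by norm_num), hne 12 (by norm_num)⟩),
      Finsupp.add_apply, Nat.prime_two.factorization_pow, Finsupp.single_eq_same]
    rw [Nat.factorization_eq_zero_of_not_dvd (by simpa only [mul_assoc] using hnd), add_zero]
  let Q : Sylow 2 ↥(chevF4.group K) := Sylow.ofCard U hU
  obtain ⟨c, hc⟩ := MulAction.exists_smul_eq ↥(chevF4.group K) P Q
  have hmem : c * y * c⁻¹ ∈ U := by
    have : c * y * c⁻¹ ∈ ((c • P : Sylow 2 ↥(chevF4.group K)) : Subgroup ↥(chevF4.group K)) := by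
      rw [Sylow.coe_subgroup_smul, Subgroup.mem_pointwise_smul_iff_inv_smul_mem]
      simpa [MulAut.smul_def, mul_assoc] using hP (Subgroup.mem_zpowers y)
    rw [hc] at this
    simpa [Q, Sylow.ofCard] using this
  have h1 : orderOf (c * y * c⁻¹) ∣ 32 := by
    refine orderOf_dvd_of_pow_eq_one (Subtype.ext ?_)
    rw [SubmonoidClass.coe_pow]
    exact posUnipotent_pow_f4 (Subgroup.mem_subgroupOf.mp hmem)
  rw [← hy, ← orderOf_injective (MulAut.conj c).toMonoidHom (MulAut.conj c).injective y]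
  exact Nat.le_of_dvd (by norm_num) h1

end Cfsg.Agent.KnownA.Lie
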